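import Cfsg.Agent.H226.R2.Base
import Cfsg.Agent.H776.CY.Congr
import Cfsg.Agent.H587.K547.HS

/-!
# S4829, `p = 2`: the row `HS` (helper99)

The rational character of degree 77 (a spherical function on the edges of the Higman-Sims graph, helper587) is invariant
under all automorphisms.
-/

set_option autoImplicit false

universe u

namespace Cfsg.Agent.H99.R2.HS

open Cfsg Cfsg.Agent.H226.R2 Cfsg.Agent.H770.CY Cfsg.Agent.H587.K547 Cfsg.Agent.H819.K4
open Cfsg.Agent.KFacts.HS Cfsg.Agent.HN Cfsg.Agent.HN.HS100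

theorem row2_Q : Row2 Q := by
  obtain ⟨χ, h1, h2, h3, h4⟩ := inv_77
  refine row2_of_odd_index (Γ := ⊤) (by rw [Subgroup.index_top]; decide) ⟨χ, h1, ?_, ⟨77, by decide, h2⟩, h3,
    fun b _ x => h4 b x⟩
  rintro rfl
  rw [Pi.one_apply] at h2
  norm_num at h2

/-- **the row** -/
theorem row_of {K : Type u} [Group K] (h : Spor.IsoHS K) : Row2 K := by
  obtain ⟨e⟩ := HS.exists_iso h
  exact H776.CY.Row2.congr e row2_Q

theorem row2_HS : Row2 Spor.HS := row_of ⟨MulEquiv.refl _⟩

theorem rowFor2_HS : RowFor2 (fun X _ => Spor.IsoHS X) := fun _ _ _ _ _ h => row_of h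

end Cfsg.Agent.H99.R2.HS
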